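import Mathlib

/-! Lifting a section `5 : 4` to a subgroup. -/

set_option autoImplicit false
set_option maxRecDepth 100000

namespace Cfsg.Agent.G2A
open Subgroup

universe u

theorem f_lift {G Q : Type*} [Group G] [Finite G] [Group Q] (π : G →* Q)
    (hπ : Function.Surjective π) {p : ℕ} [Fact p.Prime] {a b : Q} (ha : orderOf a = p)
    (hb : b ∈ Subgroup.normalizer (Subgroup.zpowers a : Set Q)) :
    ∃ P : Subgroup G, IsPGroup p P ∧ ∃ y ∈ Subgroup.normalizer (P : Set G), ∃ x ∈ P, π x = a ∧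
      π y * a * (π y)⁻¹ = b * a * b⁻¹ := by
  let M : Subgroup G := (Subgroup.zpowers a).comap π
  obtain ⟨y0, rfl⟩ := hπ b
  have hy0 : ∀ g, g ∈ M ↔ y0 * g * y0⁻¹ ∈ M := fun g => by
    simp only [M, Subgroup.mem_comap, map_mul, map_inv]
    exact Subgroup.mem_normalizer_iff.mp hb _
  let P : Sylow p M := default
  let φ : M ≃* M :=
    { toFun := fun g => ⟨y0 * g * y0⁻¹, (hy0 g).1 g.2⟩
      invFun := fun g => ⟨y0⁻¹ * g * y0, (hy0 _).2 (by simpa [mul_assoc] using g.2)⟩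
      left_inv := fun g => by ext; simp [mul_assoc]
      right_inv := fun g => by ext; simp [mul_assoc]
      map_mul' := fun g h => by ext; simp [mul_assoc] }
  obtain ⟨m, hm⟩ := MulAction.exists_smul_eq M ((φ : MulAut M) • P) P
  have hm' : ∀ g : M, g ∈ (P : Subgroup M) ↔ m * φ g * m⁻¹ ∈ (P : Subgroup M) := fun g => by
    conv_rhs => rw [← hm]
    rw [Sylow.coe_subgroup_smul, Sylow.pointwise_smul_def, Subgroup.mem_pointwise_smul_iff_inv_smul_mem,
      Subgroup.mem_pointwise_smul_iff_inv_smul_mem]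
    simp [mul_assoc]
  let f : M →* Subgroup.zpowers a := (π.comp M.subtype).codRestrict _ fun g => g.2
  have hf : Function.Surjective f := fun c => by
    obtain ⟨g, hg⟩ := hπ c
    exact ⟨⟨g, by simp [M, hg]⟩, Subtype.ext hg⟩
  have hz : IsPGroup p (Subgroup.zpowers a) := IsPGroup.of_card (n := 1) (by simp [ha])
  have htop : ((P.mapSurjective hf : Sylow p _) : Subgroup (Subgroup.zpowers a)) = ⊤ :=
    ((P.mapSurjective hf).3 (hz.to_subgroup ⊤) le_top).symm
  have : (⟨a, Subgroup.mem_zpowers a⟩ : Subgroup.zpowers a) ∈ (P : Subgroup M).map f := by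
    rw [← Sylow.coe_mapSurjective hf, htop]; trivial
  obtain ⟨x, hx, hxa⟩ := this
  refine ⟨(P : Subgroup M).map M.subtype, P.2.map _, (m : G) * y0, ?_, x, ⟨x, hx, rfl⟩,
    congrArg Subtype.val hxa, ?_⟩
  · rw [Subgroup.mem_normalizer_iff]
    intro g
    constructor
    · rintro ⟨g, hg, rfl⟩
      exact ⟨_, (hm' g).1 hg, by simp [φ, mul_assoc]⟩
    · rintro ⟨h, hh, e⟩
      have hg : g ∈ M := by
        have : g = y0⁻¹ * ((m : G)⁻¹ * h * m) * y0 := by
          simp only [Subgroup.coe_subtype] at e; rw [e]; group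
        rw [hy0, this]
        simpa [mul_assoc] using mul_mem (mul_mem (inv_mem m.2) h.2) m.2
      refine ⟨⟨g, hg⟩, (hm' _).2 ?_, rfl⟩
      have : m * φ ⟨g, hg⟩ * m⁻¹ = h := by
        ext; simp only [Subgroup.coe_subtype] at e; simp [φ, e, mul_assoc]
      rw [this]; exact hh
  · have h1 : π y0 * a * (π y0)⁻¹ ∈ Subgroup.zpowers a :=
      (Subgroup.mem_normalizer_iff.mp hb _).1 (Subgroup.mem_zpowers a)
    have h2 : π m ∈ Subgroup.zpowers a := m.2
    obtain ⟨i, hi⟩ := h1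
    obtain ⟨j, hj⟩ := h2
    simp only at hi hj
    calc π (m * y0) * a * (π (m * y0))⁻¹ = π m * (π y0 * a * (π y0)⁻¹) * (π m)⁻¹ := by
          simp [mul_assoc]
      _ = _ := by rw [← hi, ← hj]; group

theorem f_cen {G : Type*} [Group G] [hG : Group.IsNilpotent G] {N : Subgroup G} (hN : N.Normal)
    (h1 : N ≠ ⊥) : N ⊓ Subgroup.center G ≠ ⊥ := by
  intro h
  obtain ⟨n, hn⟩ := hG.nilpotent'
  have key : ∀ i : ℕ, ∀ x ∈ N, x ∈ Subgroup.upperCentralSeries G i → x = 1 := by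
    intro i
    induction i with
    | zero => intro x _ hx; simpa using hx
    | succ i ih =>
      intro x hxN hx
      have : x ∈ N ⊓ Subgroup.center G := by
        refine ⟨hxN, Subgroup.mem_center_iff.mpr fun y => ?_⟩
        have h2 := ih _ (by
          rw [commutatorElement_def, mul_assoc, mul_assoc]
          refine N.mul_mem hxN ?_
          rw [← mul_assoc]
          exact hN.conj_mem _ (N.inv_mem hxN) y) (Subgroup.mem_upperCentralSeries_succ_iff.mp hx y)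
        exact (commutatorElement_eq_one_iff_mul_comm.mp h2).symm
      rwa [h] at this
  apply h1
  rw [eq_bot_iff]
  intro x hx
  exact key n x hx (by rw [hn]; trivial)

theorem f_fix (n : ℕ) : ∀ (P : Type u) [Group P] [Finite P], Nat.card P = n → IsPGroup 5 P →
    ∀ (σ : P →* P), Function.Surjective σ → ∀ (K : Subgroup P), K.Normal → (∀ k ∈ K, σ k ∈ K) →
    ∀ x, x ∉ K → σ x * (x ^ 2)⁻¹ ∈ K → ∃ z, z ≠ 1 ∧ σ z = z ^ 2 := by
  induction n using Nat.strong_induction_on with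
  | _ n ih =>
  intro P _ _ hn hP σ hσ K hK hKσ x hx hx2
  by_cases h0 : K = ⊥
  · subst h0
    exact ⟨x, by simpa using hx, mul_inv_eq_one.1 (mem_bot.1 hx2)⟩
  haveI : Fact (Nat.Prime 5) := ⟨by norm_num⟩
  haveI := hP.isNilpotent
  have hN := f_cen hK h0
  set N := K ⊓ center P with hNd
  have hc : ∀ a ∈ N, ∀ g, g * a = a * g := fun a ha g => mem_center_iff.1 ha.2 g
  have hNσ : ∀ a ∈ N, σ a ∈ N := fun a ha => ⟨hKσ a ha.1, mem_center_iff.2 fun g => by
    obtain ⟨g, rfl⟩ := hσ g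
    rw [← map_mul, ← map_mul, hc a ha]⟩
  haveI : N.Normal := inferInstance
  have hlt : Nat.card (P ⧸ N) < n := by
    rw [← hn, ← N.index_eq_card, ← N.index_mul_card]
    have h1 : 1 < Nat.card N := (N.one_lt_card_iff_ne_bot).2 hN
    have h2 : 0 < N.index := Nat.pos_of_ne_zero N.index_ne_zero_of_finite
    nlinarith
  obtain ⟨z, hz1, hz⟩ := ih _ hlt (P ⧸ N) rfl (hP.to_quotient N) (QuotientGroup.map N N σ hNσ)
    (fun y => by
      obtain ⟨y, rfl⟩ := QuotientGroup.mk_surjective y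
      obtain ⟨y, rfl⟩ := hσ y
      exact ⟨y, rfl⟩)
    (K.map (QuotientGroup.mk' N)) (hK.map _ (QuotientGroup.mk'_surjective N))
    (by rintro _ ⟨k, hk, rfl⟩; exact ⟨σ k, hKσ k hk, rfl⟩) (x : P ⧸ N)
    (by
      rintro ⟨k, hk, e⟩
      have h3 : k⁻¹ * x ∈ N := QuotientGroup.eq.1 e
      exact hx (by simpa using K.mul_mem hk h3.1))
    ⟨_, hx2, rfl⟩
  obtain ⟨z, rfl⟩ := QuotientGroup.mk_surjective z
  have hz0 : z ∉ N := fun h => hz1 ((QuotientGroup.eq_one_iff z).2 h)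
  have hz2 : (σ z)⁻¹ * z ^ 2 ∈ N := QuotientGroup.eq.1 hz
  let g : N → N := fun a => ⟨σ a * ((a : P) ^ 2)⁻¹, N.mul_mem (hNσ _ a.2) (N.inv_mem (N.pow_mem a.2 2))⟩
  by_cases hg : Function.Injective g
  · obtain ⟨a, ha⟩ := Finite.surjective_of_injective hg ⟨_, hz2⟩
    have e : σ a * ((a : P) ^ 2)⁻¹ = (σ z)⁻¹ * z ^ 2 := congrArg Subtype.val ha
    refine ⟨z * a, fun h => hz0 ?_, ?_⟩
    · rw [eq_inv_of_mul_eq_one_left h]; exact N.inv_mem a.2
    · rw [map_mul, mul_inv_eq_iff_eq_mul.1 e, Commute.mul_pow (hc a a.2 z)]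
      group
  · simp only [Function.Injective, not_forall] at hg
    obtain ⟨a, b, e, hab⟩ := hg
    have e : σ a * ((a : P) ^ 2)⁻¹ = σ b * ((b : P) ^ 2)⁻¹ := congrArg Subtype.val e
    refine ⟨(b : P)⁻¹ * a, fun h => hab (Subtype.ext (inv_mul_eq_one.1 h).symm), ?_⟩
    rw [map_mul, map_inv, mul_inv_eq_iff_eq_mul.1 e, Commute.mul_pow (hc a a.2 _)]
    group

def fc5 : Equiv.Perm (Fin 7) := ⟨![1, 2, 3, 4, 0, 5, 6], ![4, 0, 1, 2, 3, 5, 6], by decide, by decide⟩
def fd5 : Equiv.Perm (Fin 7) := ⟨![0, 2, 4, 1, 3, 6, 5], ![0, 3, 1, 4, 2, 6, 5], by decide, by decide⟩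

theorem f_ex {r : ℕ} (hr : 7 ≤ r) : ∃ a b : alternatingGroup (Fin r),
    orderOf a = 5 ∧ b * a * b⁻¹ = a ^ 2 := by
  let ι := Equiv.Perm.viaEmbeddingHom (Fin.castLEEmb hr)
  have hι : Function.Injective ι := Equiv.Perm.viaEmbeddingHom_injective _
  have hs : ∀ c : Equiv.Perm (Fin 7), Equiv.Perm.sign c = 1 → ι c ∈ alternatingGroup (Fin r) := fun c hc => by
    rw [Equiv.Perm.mem_alternatingGroup, ← hc]
    simp only [ι, Equiv.Perm.viaEmbeddingHom, Equiv.Perm.extendDomainHom_apply]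
    classical
    convert Equiv.Perm.sign_extendDomain c _
  refine ⟨⟨ι fc5, hs _ (by decide)⟩, ⟨ι fd5, hs _ (by decide)⟩, ?_, Subtype.ext ?_⟩
  · rw [← Subgroup.orderOf_coe, orderOf_injective ι hι]
    exact orderOf_eq_prime (hp := ⟨by norm_num⟩) (by decide) (by decide)
  · simp only [Subgroup.coe_mul, Subgroup.coe_inv, Subgroup.coe_pow]
    rw [← map_inv, ← map_mul, ← map_mul, ← map_pow]
    congr 1
    decide

theorem five {H : Type*} [Group H] [Finite H] {r : ℕ} (hr : 7 ≤ r) (π : H →* alternatingGroup (Fin r))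
    (hπ : Function.Surjective π) : ∃ z g : H, orderOf z = 5 ∧ g * z * g⁻¹ = z ^ 2 := by
  haveI : Fact (Nat.Prime 5) := ⟨by norm_num⟩
  obtain ⟨a, b, ha, hb⟩ := f_ex hr
  have hbn : b ∈ normalizer (zpowers a : Set (alternatingGroup (Fin r))) := by
    refine mem_normalizer_fintype ?_
    rintro _ ⟨i, rfl⟩
    simp only
    rw [← conj_zpow, hb]
    exact zpow_mem (pow_mem (mem_zpowers a) 2) i
  obtain ⟨P, hP, y, hy, x, hx, hxa, e⟩ := f_lift π hπ ha hbn
  let σ : P ≃* P := P.normalizerMonoidHom ⟨y, hy⟩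
  have hσ : ∀ m : P, ((σ m : P) : H) = y * m * y⁻¹ := fun m => rfl
  obtain ⟨z, hz1, hz⟩ := f_fix _ P rfl hP (σ : P →* P) σ.surjective (π.comp P.subtype).ker inferInstance
    (fun k hk => by
      have hk' : π k = 1 := hk
      show π (σ k : P) = 1
      rw [hσ, map_mul, map_mul, hk']; simp) ⟨x, hx⟩
    (fun h => by
      have h' : π x = 1 := h
      rw [← hxa, h'] at ha
      simp at ha)
    (by
      show π ((σ ⟨x, hx⟩ : P) * (x ^ 2)⁻¹) = 1
      rw [hσ, map_mul, map_mul, map_mul, map_inv, map_inv, map_pow, hxa, e, hb]; simp)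
  have hz' : y * z * y⁻¹ = (z : H) ^ 2 := congrArg Subtype.val hz
  obtain ⟨k, hk⟩ := (IsPGroup.iff_orderOf.1 hP) z
  have hd : 5 ∣ orderOf (z : H) := by
    rw [orderOf_coe, hk]
    refine dvd_pow_self _ fun h => hz1 ?_
    rw [h, pow_zero] at hk
    exact orderOf_eq_one_iff.1 hk
  refine ⟨(z : H) ^ (orderOf (z : H) / 5), y, orderOf_pow_orderOf_div (orderOf_pos _).ne' hd, ?_⟩
  rw [← conj_pow, hz', ← pow_mul, ← pow_mul, mul_comm]

end Cfsg.Agent.G2A
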