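import Mathlib
import Cfsg.Agent.Chev.Oct3
import Cfsg.Agent.G2A.L

/-!
Elements of order `5` and `3` in `G₂`.
-/

set_option autoImplicit false

namespace Cfsg.Agent.G2A

open Module Subgroup Matrix Cfsg.Agent.Chev.Oct Cfsg.Lie

/-- exponents of the eigenvalues -/
def ex (l a b c : ℕ) : Fin 8 → ℕ := ![0, a, b, c, (l - 1) * a, (l - 1) * b, (l - 1) * c, 0]

section
variable {k G : Type*} [Field k] [Group G] (ψ : G →* GL (Fin 8) k)

theorem rk_conj (a x : GL (Fin 8) k) (μ : k) :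
    ((a⁻¹ * x * a).1 - μ • 1).rank = (x.1 - μ • 1).rank := by
  have : (a⁻¹ * x * a).1 - μ • 1 = (a⁻¹).1 * (x.1 - μ • 1) * a.1 := by
    rw [mul_sub, sub_mul, mul_smul_comm, smul_mul_assoc, mul_one, Units.inv_mul, Units.val_mul,
      Units.val_mul]
  rw [this, rank_mul_eq_left_of_isUnit_det _ _ (Matrix.isUnits_det_units a),
    rank_mul_eq_right_of_isUnit_det _ _ (Matrix.isUnits_det_units a⁻¹)]

theorem exists_ex (hψ : Function.Injective ψ) {z : G} {l : ℕ} (hl : l.Prime) (hz : orderOf z = l)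
    (t : Fin 3 → kˣ) (ht : t 0 * t 1 * t 2 = 1) (a : GL (Fin 8) k)
    (ha : (a⁻¹ * ψ z * a).1 = diagonal fun i => (dd t i).1) :
    ∃ ζ : kˣ, ∃ e0 < l, ∃ e1 < l, ∃ e2 < l, (e0 + e1 + e2) % l = 0 ∧ (e0 ≠ 0 ∨ e1 ≠ 0 ∨ e2 ≠ 0) ∧
      ∀ n m : ℕ, ((ψ (z ^ n)).1 - ((ζ ^ m : kˣ) : k) • 1).rank =
        (Finset.univ.filter fun i => (ex l e0 e1 e2 i * n) % l ≠ m % l).card := by
  classical
  have := Fact.mk hl
  have hp : ∀ n : ℕ, (a⁻¹ * ψ (z ^ n) * a).1 = diagonal fun i => ((dd t i ^ n : kˣ) : k) := by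
    intro n
    have : a⁻¹ * ψ (z ^ n) * a = (a⁻¹ * ψ z * a) ^ n := by
      have := conj_pow (a := a⁻¹) (b := ψ z) (i := n)
      rw [inv_inv] at this
      rw [map_pow, this]
    rw [this, Units.val_pow_eq_pow_val, ha, diagonal_pow]
    congr 1
  have hl1 : ∀ i, dd t i ^ l = 1 := by
    intro i
    have := hp l
    rw [← hz, pow_orderOf_eq_one, map_one, mul_one, inv_mul_cancel, hz] at this
    have h2 := congrFun (congrFun this i) i
    rw [diagonal_apply_eq, Units.val_one, one_apply_eq] at h2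
    exact Units.ext h2.symm
  have hne : ∃ j, t j ≠ 1 := by
    by_contra h
    push Not at h
    have h1 : a⁻¹ * ψ z * a = 1 := by
      apply Units.ext
      rw [ha, Units.val_one, ← diagonal_one]
      congr 1
      funext i
      fin_cases i <;> simp [dd, h]
    have h2 : ψ z = 1 := by
      have : ψ z = a * (a⁻¹ * ψ z * a) * a⁻¹ := by group
      rw [this, h1]; group
    rw [hψ (h2.trans (map_one ψ).symm), orderOf_one] at hz
    exact hl.one_lt.ne hz
  obtain ⟨j, hj⟩ := hne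
  have htl : ∀ i, t i ^ l = 1 := by
    intro i
    fin_cases i
    · exact hl1 1
    · exact hl1 2
    · exact hl1 3
  have ho : orderOf (t j) = l := orderOf_eq_prime (htl j) hj
  have hpr : IsPrimitiveRoot (t j) l := ho ▸ IsPrimitiveRoot.orderOf (t j)
  have he : ∀ i, ∃ e < l, t j ^ e = t i := fun i =>
    hpr.eq_pow_of_mem_rootsOfUnity ((mem_rootsOfUnity _ _).2 (htl i))
  obtain ⟨e0, h0, k0⟩ := he 0
  obtain ⟨e1, h1, k1⟩ := he 1
  obtain ⟨e2, h2, k2⟩ := he 2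
  have hi : ∀ e : ℕ, (t j ^ e)⁻¹ = t j ^ ((l - 1) * e) := by
    intro e
    rw [inv_eq_iff_mul_eq_one, ← pow_add, show e + (l - 1) * e = l * e by
      obtain ⟨l, rfl⟩ : ∃ m, l = m + 1 := ⟨l - 1, by have := hl.pos; omega⟩
      simp; ring, pow_mul, htl j, one_pow]
  have hd : ∀ i, dd t i = t j ^ ex l e0 e1 e2 i := by
    intro i
    fin_cases i
    · simp [dd, ex]
    · exact k0.symm
    · exact k1.symm
    · exact k2.symm
    · exact (congrArg (·⁻¹) k0.symm).trans (hi e0)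
    · exact (congrArg (·⁻¹) k1.symm).trans (hi e1)
    · exact (congrArg (·⁻¹) k2.symm).trans (hi e2)
    · simp [dd, ex]
  refine ⟨t j, e0, h0, e1, h1, e2, h2, ?_, ?_, ?_⟩
  · rw [← k0, ← k1, ← k2, ← pow_add, ← pow_add, ← orderOf_dvd_iff_pow_eq_one, ho] at ht
    exact Nat.mod_eq_zero_of_dvd ht
  · by_contra h
    push Not at h
    obtain ⟨rfl, rfl, rfl⟩ := h
    apply hj
    fin_cases j
    · exact k0.symm.trans (pow_zero _)
    · exact k1.symm.trans (pow_zero _)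
    · exact k2.symm.trans (pow_zero _)
  · intro n m
    rw [← rk_conj a, hp, smul_one_eq_diagonal, diagonal_sub, rank_diagonal, Fintype.card_subtype]
    congr 1
    refine Finset.filter_congr fun i _ => ?_
    rw [Ne, sub_eq_zero, Units.val_inj, hd, ← pow_mul, pow_eq_pow_iff_modEq, ho]
    rfl

end

theorem dec5 : ∀ e0 < 5, ∀ e1 < 5, ∀ e2 < 5, (e0 + e1 + e2) % 5 = 0 → (e0 ≠ 0 ∨ e1 ≠ 0 ∨ e2 ≠ 0) →
    ∃ m < 5, (Finset.univ.filter fun i => (ex 5 e0 e1 e2 i * 1) % 5 ≠ m % 5).card ≠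
      (Finset.univ.filter fun i => (ex 5 e0 e1 e2 i * 2) % 5 ≠ m % 5).card := by
  intro e0 h0 e1 h1 e2 h2
  interval_cases e0 <;> interval_cases e1 <;> interval_cases e2 <;> decide +kernel

theorem dec3 : ∀ e0 < 3, ∀ e1 < 3, ∀ e2 < 3, (e0 + e1 + e2) % 3 = 0 → (e0 ≠ 0 ∨ e1 ≠ 0 ∨ e2 ≠ 0) →
    (Finset.univ.filter fun i => (ex 3 e0 e1 e2 i * 1) % 3 ≠ 0 % 3).card = 4 ∨
    (Finset.univ.filter fun i => (ex 3 e0 e1 e2 i * 1) % 3 ≠ 0 % 3).card = 6 := by
  intro e0 h0 e1 h1 e2 h2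
  interval_cases e0 <;> interval_cases e1 <;> interval_cases e2 <;> decide +kernel

variable {F : Type*} [Field F] [Fintype F] (p : ℕ) [hp : Fact p.Prime] [CharP F p]
include hp

theorem no5 (h5 : p ≠ 5) (z g : chevG2.group F) (hz : orderOf z = 5) : g * z * g⁻¹ ≠ z ^ 2 := by
  intro hg
  obtain ⟨ψ, h1, -, h3⟩ := exists_psi (F := F) p
  obtain ⟨t, ht, a, -, ha⟩ := h3 z (by
    rw [hz]; exact (Nat.coprime_primes Nat.prime_five hp.out).2 h5.symm)
  obtain ⟨ζ, e0, h0, e1, h1, e2, h2, k1, k2, k3⟩ := exists_ex ψ h1 Nat.prime_five hz t ht.1 a ha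
  obtain ⟨m, -, hm⟩ := dec5 e0 h0 e1 h1 e2 h2 k1 k2
  apply hm
  rw [← k3, ← k3, ← hg, pow_one, map_mul, map_mul, map_inv, ← rk_conj (ψ g)⁻¹ (ψ z), inv_inv]

theorem exists_f (h3 : p ≠ 3) : ∃ f : chevG2.group F → ℕ, (∀ g z, f (g * z * g⁻¹) = f z) ∧
    (∀ z, f z⁻¹ = f z) ∧ (∀ z, orderOf z = 3 → f z = 2 ∨ f z = 4) ∧
    ∀ a b, a ^ 3 = 1 → b ^ 3 = 1 → Commute a b →
      ∃ m, 1 ≤ m ∧ f a + f b + f (a * b) + f (a * b * b) = 8 + 3 * m := by
  obtain ⟨ψ, h1, h2, h4⟩ := exists_psi (F := F) p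
  let ρ := (rho (AlgebraicClosure F)).comp ψ
  have hr : ∀ z, finrank (AlgebraicClosure F) (fxs ρ z) + ((ψ z).1 - (1 : AlgebraicClosure F) • 1).rank = 8 := by
    intro z
    have := LinearMap.finrank_range_add_finrank_ker (ρ z - 1)
    rw [finrank_fin_fun] at this
    have e : ((ψ z).1 - (1 : AlgebraicClosure F) • 1).mulVecLin = ρ z - 1 := by
      refine LinearMap.ext fun v => ?_
      rw [one_smul, mulVecLin_apply, sub_mulVec, one_mulVec]; rfl
    rw [Matrix.rank, e, add_comm]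
    exact this
  refine ⟨fun z => finrank (AlgebraicClosure F) (fxs ρ z), fun g z => ?_, fun z => ?_, fun z hz => ?_,
    fun a b ha hb hab => ?_⟩
  · have e1 := hr (g * z * g⁻¹)
    have e2 := hr z
    rw [← rk_conj (ψ g)⁻¹ (ψ z), inv_inv] at e2
    rw [map_mul, map_mul, map_inv] at e1
    show finrank (AlgebraicClosure F) (fxs ρ (g * z * g⁻¹)) = finrank (AlgebraicClosure F) (fxs ρ z)
    omega
  · have : fxs ρ z⁻¹ = fxs ρ z := by
      ext v
      rw [mem_fxs, mem_fxs]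
      constructor
      · intro h
        conv_lhs => rw [← h]
        rw [← l_mul, mul_inv_cancel, map_one]; rfl
      · intro h
        conv_lhs => rw [← h]
        rw [← l_mul, inv_mul_cancel, map_one]; rfl
    show finrank (AlgebraicClosure F) (fxs ρ z⁻¹) = finrank (AlgebraicClosure F) (fxs ρ z)
    rw [this]
  · obtain ⟨t, ht, a, -, ha⟩ := h4 z (by
      rw [hz]; exact (Nat.coprime_primes Nat.prime_three hp.out).2 h3.symm)
    obtain ⟨ζ, e0, h0, e1, h1, e2, h2, k1, k2, k3⟩ := exists_ex ψ h1 Nat.prime_three hz t ht.1 a ha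
    have := dec3 e0 h0 e1 h1 e2 h2 k1 k2
    rw [← k3, pow_one, pow_zero, Units.val_one] at this
    have e := hr z
    show finrank (AlgebraicClosure F) (fxs ρ z) = 2 ∨ finrank (AlgebraicClosure F) (fxs ρ z) = 4
    omega
  · have h30 : (3 : AlgebraicClosure F) ≠ 0 := by
      have : ((3 : ℕ) : AlgebraicClosure F) ≠ 0 := by
        rw [Ne, CharP.cast_eq_zero_iff _ p, Nat.prime_dvd_prime_iff_eq hp.out Nat.prime_three]
        exact h3
      exact_mod_cast this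
    have := dim_four ρ h30 ha hb hab
    rw [finrank_fin_fun] at this
    refine ⟨_, ?_, this⟩
    rw [Nat.one_le_iff_ne_zero, Ne, Submodule.finrank_eq_zero, Submodule.eq_bot_iff]
    intro h
    have := h (one8 _) ⟨(mem_fxs ρ).2 (ac_one8 (h2 a)), (mem_fxs ρ).2 (ac_one8 (h2 b))⟩
    simpa [one8] using congrFun this 0

omit hp in
theorem ord3 {G : Type*} [Group G] {a : G} (ha : a ^ 3 = 1) (h1 : a ≠ 1) : orderOf a = 3 :=
  haveI := Fact.mk Nat.prime_three
  orderOf_eq_prime ha h1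

omit hp in
theorem pair3 {G : Type*} [Group G] (f : G → ℕ) (hf : ∀ z, orderOf z = 3 → f z = 2 ∨ f z = 4)
    (hs : ∀ a b, a ^ 3 = 1 → b ^ 3 = 1 → Commute a b →
      ∃ m, 1 ≤ m ∧ f a + f b + f (a * b) + f (a * b * b) = 8 + 3 * m)
    {a b : G} (ha : a ^ 3 = 1) (hb : b ^ 3 = 1) (hab : Commute a b) (h1 : a ≠ 1)
    (h2 : b ∉ zpowers a) : (f a = 2 ∨ f a = 4) ∧ (f b = 2 ∨ f b = 4) ∧
      (f (a * b) = 2 ∨ f (a * b) = 4) ∧ (f (a * b * b) = 2 ∨ f (a * b * b) = 4) ∧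
      f a + f b + f (a * b) + f (a * b * b) = 14 := by
  have hc : (a * b) ^ 3 = 1 := by rw [hab.mul_pow, ha, hb, one_mul]
  have cab : Commute (a * b) b := hab.mul_left (Commute.refl b)
  have hd : (a * b * b) ^ 3 = 1 := by rw [cab.mul_pow, hc, hb, one_mul]
  have e1 := hf a (ord3 ha h1)
  have e2 := hf b (ord3 hb fun h => h2 (h ▸ one_mem _))
  have e3 := hf _ (ord3 hc fun h => h2 (by
    rw [eq_inv_of_mul_eq_one_right h]; exact inv_mem (mem_zpowers a)))
  have e4 := hf _ (ord3 hd fun h => h2 (by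
    have : b = a := by
      calc b = (a * b * b) * b := by rw [h, one_mul]
        _ = a * b ^ 3 := by simp only [pow_succ, pow_zero, one_mul, mul_assoc]
        _ = a := by rw [hb, mul_one]
    rw [this]; exact mem_zpowers a))
  obtain ⟨m, h, e⟩ := hs a b ha hb hab
  refine ⟨e1, e2, e3, e4, ?_⟩
  omega

theorem no_w (h3 : p ≠ 3) (y₁ y₂ w : chevG2.group F) (h1 : orderOf y₁ = 3) (hc : Commute y₁ y₂)
    (h2 : y₂ ∉ zpowers y₁) (e1 : w * y₁ * w⁻¹ = y₂) (e2 : w * y₂ * w⁻¹ = y₁⁻¹) : False := by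
  obtain ⟨f, f1, f2, f3, f4⟩ := exists_f (F := F) p h3
  have a3 : y₁ ^ 3 = 1 := h1 ▸ pow_orderOf_eq_one y₁
  have b3 : y₂ ^ 3 = 1 := by rw [← e1, conj_pow, a3]; simp
  obtain ⟨k1, k2, k3, k4, k5⟩ := pair3 f f3 f4 a3 b3 hc (fun h => by simp [h] at h1) h2
  have g1 : f y₂ = f y₁ := by rw [← e1, f1]
  have g2 : f (y₁ * y₂ * y₂) = f (y₁ * y₂) := by
    rw [← f1 w (y₁ * y₂), ← f2 (y₁ * y₂ * y₂)]
    congr 1
    rw [← conj_mul, e1, e2, inv_eq_iff_mul_eq_one]
    calc y₁ * y₂ * y₂ * (y₂ * y₁⁻¹) = y₁ * y₂ ^ 3 * y₁⁻¹ := by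
          simp only [pow_succ, pow_zero, one_mul, mul_assoc]
      _ = 1 := by rw [b3]; simp
  omega

omit hp in
theorem no33_aux {G : Type*} [Group G] (f : G → ℕ) (hf : ∀ z, orderOf z = 3 → f z = 2 ∨ f z = 4)
    (hs : ∀ a b, a ^ 3 = 1 → b ^ 3 = 1 → Commute a b →
      ∃ m, 1 ≤ m ∧ f a + f b + f (a * b) + f (a * b * b) = 8 + 3 * m)
    {u v c : G} (S : Subgroup G) (hu : u ∈ S) (hv : v ∈ S) (hc : c ∉ S)
    (u3 : u ^ 3 = 1) (v3 : v ^ 3 = 1) (c3 : c ^ 3 = 1) (uv : Commute u v) (uc : Commute u c)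
    (vc : Commute v c) (fu : f u = 2) (fv : f v = 4) (u1 : u ≠ 1) (v1 : v ≠ 1) : False := by
  have two : ∀ x, x ^ 3 = 1 → Commute u x → x ∉ S → f x ≠ 2 := by
    intro x x3 ux hx h
    obtain ⟨k1, k2, k3, k4, k5⟩ := pair3 f hf hs u3 x3 ux u1 fun h => hx (zpowers_le.2 hu h)
    omega
  obtain ⟨k1, k2, k3, k4, k5⟩ := pair3 f hf hs v3 c3 vc v1 fun h => hc (zpowers_le.2 hv h)
  have hd : (v * c) ^ 3 = 1 := by rw [vc.mul_pow, v3, c3, one_mul]
  have t1 := two c c3 uc hc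
  have t2 := two (v * c) hd (uv.mul_right uc) fun h => hc ((S.mul_mem_cancel_left hv).1 h)
  have t3 := two (v * c * c) (by rw [(vc.mul_left (Commute.refl c)).mul_pow, hd, c3, one_mul])
    ((uv.mul_right uc).mul_right uc) fun h => hc (by
      rw [mul_assoc, S.mul_mem_cancel_left hv] at h
      have : c = (c * c) * (c * c) := by
        calc c = c ^ 3 * c := by rw [c3, one_mul]
          _ = _ := by simp only [pow_succ, pow_zero, one_mul, mul_assoc]
      rw [this]; exact mul_mem h h)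
  omega

theorem no33 (h3 : p ≠ 3) (a b c : chevG2.group F) (ha : a ^ 3 = 1) (hb : b ^ 3 = 1)
    (hc : c ^ 3 = 1) (ab : Commute a b) (ac : Commute a c) (bc : Commute b c) (h1 : a ≠ 1)
    (h2 : b ∉ zpowers a) : c ∈ closure ({a, b} : Set (chevG2.group F)) := by
  obtain ⟨f, -, -, f3, f4⟩ := exists_f (F := F) p h3
  by_contra h
  obtain ⟨k1, k2, k3, k4, k5⟩ := pair3 f f3 f4 ha hb ab h1 h2
  have sa : a ∈ closure ({a, b} : Set (chevG2.group F)) := subset_closure (by simp)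
  have sb : b ∈ closure ({a, b} : Set (chevG2.group F)) := subset_closure (by simp)
  have b1 : b ≠ 1 := fun h => h2 (h ▸ one_mem _)
  have hd : (a * b) ^ 3 = 1 := by rw [ab.mul_pow, ha, hb, one_mul]
  have cab : Commute (a * b) b := ab.mul_left (Commute.refl b)
  have he : (a * b * b) ^ 3 = 1 := by rw [cab.mul_pow, hd, hb, one_mul]
  have d1 : a * b ≠ 1 := fun h => h2 (by
    rw [eq_inv_of_mul_eq_one_right h]; exact inv_mem (mem_zpowers a))
  have e1 : a * b * b ≠ 1 := fun h => h2 (by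
    have : b = a := by
      calc b = (a * b * b) * b := by rw [h, one_mul]
        _ = a * b ^ 3 := by simp only [pow_succ, pow_zero, one_mul, mul_assoc]
        _ = a := by rw [hb, mul_one]
    rw [this]; exact mem_zpowers a)
  by_cases fa : f a = 2
  · exact no33_aux f f3 f4 _ sa sb h ha hb hc ab ac bc fa (by omega) h1 b1
  have fa4 : f a = 4 := by omega
  by_cases fb : f b = 2
  · exact no33_aux f f3 f4 _ sb sa h hb ha hc ab.symm bc ac fb fa4 b1 h1
  by_cases fc : f (a * b) = 2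
  · exact no33_aux f f3 f4 _ (mul_mem sa sb) sa h hd ha hc ((Commute.refl a).mul_left ab.symm)
      (ac.mul_left bc) ac fc fa4 d1 h1
  · exact no33_aux f f3 f4 _ (mul_mem (mul_mem sa sb) sb) sa h he ha hc
      (((Commute.refl a).mul_left ab.symm).mul_left ab.symm)
      ((ac.mul_left bc).mul_left bc) ac (by omega) fa4 e1 h1

end Cfsg.Agent.G2A
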