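import Mathlib
import Cfsg.Agent.S0892
import Cfsg.Agent.AltS.F35

/-! Lifting the subgroup `3² : 4` of an alternating section. -/

set_option autoImplicit false

namespace Cfsg.Agent.G2A

open Subgroup Cfsg.Agent.AltS

universe u

theorem t_one {G : Type*} [Group G] {x : G} {a b : ℕ} (h : Nat.Coprime a b) (ha : x ^ a = 1)
    (hb : x ^ b = 1) : x = 1 :=
  orderOf_eq_one_iff.1 (Nat.eq_one_of_dvd_coprimes h (orderOf_dvd_of_pow_eq_one ha)
    (orderOf_dvd_of_pow_eq_one hb))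

/-- the 3-cycle `(0 1 2)` -/
def tA : Equiv.Perm (Fin 8) := ⟨![1, 2, 0, 3, 4, 5, 6, 7], ![2, 0, 1, 3, 4, 5, 6, 7], by decide, by decide⟩
/-- the 3-cycle `(3 4 5)` -/
def tB : Equiv.Perm (Fin 8) := ⟨![0, 1, 2, 4, 5, 3, 6, 7], ![0, 1, 2, 5, 3, 4, 6, 7], by decide, by decide⟩
/-- `(0 3)(1 4 2 5)` -/
def tW : Equiv.Perm (Fin 8) := ⟨![3, 4, 5, 0, 2, 1, 6, 7], ![3, 5, 4, 0, 1, 2, 6, 7], by decide, by decide⟩
/-- a 7-cycle -/
def tC : Equiv.Perm (Fin 8) := ⟨![1, 2, 3, 4, 5, 6, 0, 7], ![6, 0, 1, 2, 3, 4, 5, 7], by decide, by decide⟩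

theorem t_sp : (Equiv.Perm.sign tA = 1 ∧ Equiv.Perm.sign tB = 1 ∧ Equiv.Perm.sign tW = 1 ∧
    Equiv.Perm.sign tC = 1) ∧ (tA ^ 3 = 1 ∧ tA ≠ 1) ∧ (tC ^ 7 = 1 ∧ tC ≠ 1) ∧ tA * tB = tB * tA ∧
    tW * tA * tW⁻¹ = tB ∧ tW * tB * tW⁻¹ = tA⁻¹ ∧ tA 3 = 3 ∧ tB 3 ≠ 3 := by decide +kernel

theorem t_ex {r : ℕ} (hr : 8 ≤ r) : ∃ a b w c : alternatingGroup (Fin r), a ^ 3 = 1 ∧ a ≠ 1 ∧
    c ^ 7 = 1 ∧ c ≠ 1 ∧ Commute a b ∧ w * a * w⁻¹ = b ∧ w * b * w⁻¹ = a⁻¹ ∧ b ∉ zpowers a := by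
  obtain ⟨ι, hι⟩ := f35_emb hr
  obtain ⟨⟨s1, s2, s3, s4⟩, h1, h2, h3, h4, h5, h6, h7⟩ := t_sp
  refine ⟨ι ⟨tA, s1⟩, ι ⟨tB, s2⟩, ι ⟨tW, s3⟩, ι ⟨tC, s4⟩, ?_, ?_, ?_, ?_, ?_, ?_, ?_, ?_⟩
  · rw [← map_pow, map_eq_one_iff ι hι]; exact Subtype.ext h1.1
  · rw [Ne, map_eq_one_iff ι hι]; exact fun e => h1.2 (congrArg Subtype.val e)
  · rw [← map_pow, map_eq_one_iff ι hι]; exact Subtype.ext h2.1
  · rw [Ne, map_eq_one_iff ι hι]; exact fun e => h2.2 (congrArg Subtype.val e)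
  · exact Commute.map (Subtype.ext h3) ι
  · rw [← map_inv, ← map_mul, ← map_mul]; exact congrArg ι (Subtype.ext h4)
  · rw [← map_inv, ← map_mul, ← map_mul, ← map_inv]; exact congrArg ι (Subtype.ext h5)
  · intro h
    obtain ⟨k, hk⟩ := mem_zpowers_iff.1 h
    rw [← map_zpow] at hk
    have e : tA ^ k = tB := congrArg Subtype.val (hι hk)
    exact h7 (e ▸ Equiv.Perm.zpow_apply_eq_self_of_apply_eq_self h6 k)

theorem t_lift {H Q : Type*} [Group H] [Finite H] [Group Q] [Finite Q] (π : H →* Q)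
    (hπ : Function.Surjective π) (hK : ∀ x : H, ∀ j : ℕ, π x = 1 → x ^ 3 ^ j = 1 → x = 1)
    {a b w : Q} (h1 : a ^ 3 = 1) (h2 : a ≠ 1) (h3 : Commute a b) (h4 : w * a * w⁻¹ = b)
    (h5 : w * b * w⁻¹ = a⁻¹) (h6 : b ∉ zpowers a) :
    ∃ y₁ y₂ w : H, orderOf y₁ = 3 ∧ Commute y₁ y₂ ∧ y₂ ∉ zpowers y₁ ∧ w * y₁ * w⁻¹ = y₂ ∧
      w * y₂ * w⁻¹ = y₁⁻¹ := by
  have : Fact (Nat.Prime 3) := ⟨Nat.prime_three⟩
  have hb : b ^ 3 = 1 := by rw [← h4, conj_pow, h1]; simp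
  let E : Subgroup Q :=
    { carrier := {x | ∃ i j : ℤ, x = a ^ i * b ^ j}
      mul_mem' := by
        rintro _ _ ⟨i, j, rfl⟩ ⟨k, l, rfl⟩
        refine ⟨i + k, j + l, ?_⟩
        rw [zpow_add, zpow_add, mul_assoc, mul_assoc, ← mul_assoc (b ^ j), ← (h3.zpow_zpow k j).eq,
          mul_assoc]
      one_mem' := ⟨0, 0, by simp⟩
      inv_mem' := by
        rintro _ ⟨i, j, rfl⟩
        exact ⟨-i, -j, by rw [mul_inv_rev, ← zpow_neg, ← zpow_neg, (h3.zpow_zpow (-i) (-j)).eq]⟩ }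
  have hE : IsPGroup 3 E := by
    rintro ⟨_, i, j, rfl⟩
    refine ⟨1, Subtype.ext ?_⟩
    show (a ^ i * b ^ j) ^ 3 = 1
    rw [(h3.zpow_zpow i j).mul_pow, ← zpow_natCast, ← zpow_natCast, ← zpow_mul, ← zpow_mul, mul_comm i,
      mul_comm j, zpow_mul, zpow_mul, zpow_natCast, zpow_natCast, h1, hb, one_zpow, one_zpow, one_mul]
  have hw : w ∈ normalizer (E : Set Q) := by
    refine mem_normalizer_fintype ?_
    rintro _ ⟨i, j, rfl⟩
    refine ⟨-j, i, ?_⟩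
    rw [show w * (a ^ i * b ^ j) * w⁻¹ = (w * a ^ i * w⁻¹) * (w * b ^ j * w⁻¹) by group, ← conj_zpow,
      ← conj_zpow, h4, h5, inv_zpow', (h3.zpow_zpow (-j) i).eq]
  have haE : a ∈ E := ⟨1, 0, by simp⟩
  obtain ⟨P, p1, p2, p3⟩ := f35_fr (p := 3) (π.subgroupComap (normalizer (E : Set Q)))
    (π.subgroupComap_surjective_of_surjective _ hπ) (E.subgroupOf (normalizer (E : Set Q)))
    (hE.comap_subtype)
  obtain ⟨y, hy, ey⟩ := p3.ge (mem_top ⟨w, hw⟩)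
  obtain ⟨x, hx, ex⟩ := p2.ge (show (⟨a, le_normalizer haE⟩ : normalizer (E : Set Q)) ∈
    E.subgroupOf (normalizer (E : Set Q)) from haE)
  have ey' : π y.1 = w := congrArg Subtype.val ey
  have ex' : π x.1 = a := congrArg Subtype.val ex
  have inj : ∀ u ∈ P, π u.1 = 1 → u.1 = 1 := fun u hu e => by
    obtain ⟨j, hj⟩ := p1 ⟨u, hu⟩
    exact hK _ j e (congrArg (fun s : P => s.1.1) hj)
  have hx2 : y * x * y⁻¹ ∈ P := (mem_normalizer_iff.1 hy x).1 hx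
  have hx3 : y * (y * x * y⁻¹) * y⁻¹ ∈ P := (mem_normalizer_iff.1 hy _).1 hx2
  have e2 : π (y.1 * x.1 * y.1⁻¹) = b := by rw [map_mul, map_mul, map_inv, ey', ex', h4]
  refine ⟨x.1, y.1 * x.1 * y.1⁻¹, y.1, orderOf_eq_prime (inj _ (pow_mem hx 3) ?_) fun e => h2 ?_, ?_,
    fun h => h6 ?_, rfl, ?_⟩
  · show π (x.1 ^ 3) = 1
    rw [map_pow, ex', h1]
  · rw [← ex', e, map_one]
  · rw [← commutatorElement_eq_one_iff_commute, commutatorElement_def]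
    refine inj _ (mul_mem (mul_mem (mul_mem hx hx2) (inv_mem hx)) (inv_mem hx2)) ?_
    show π (x.1 * (y.1 * x.1 * y.1⁻¹) * x.1⁻¹ * (y.1 * x.1 * y.1⁻¹)⁻¹) = 1
    rw [map_mul, map_mul, map_mul, map_inv, map_inv, e2, ex', h3.eq]; group
  · obtain ⟨k, hk⟩ := mem_zpowers_iff.1 h
    exact mem_zpowers_iff.2 ⟨k, by rw [← ex', ← map_zpow, hk, e2]⟩
  · rw [← mul_eq_one_iff_eq_inv]
    refine inj _ (mul_mem hx3 hx) ?_
    show π (y.1 * (y.1 * x.1 * y.1⁻¹) * y.1⁻¹ * x.1) = 1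
    rw [map_mul, map_mul, map_mul, map_inv, e2, ex', ey', h5, inv_mul_cancel]

theorem t_ker {H : Type u} [Group H] [Finite H] {r : ℕ} (hr : 8 ≤ r)
    (π : H →* alternatingGroup (Fin r)) (hπ : Function.Surjective π) (hp : commutator H = ⊤)
    (P : Sylow 3 π.ker) (hc : (P : Subgroup π.ker).map π.ker.subtype ≤ center H) :
    ∀ x : H, ∀ j : ℕ, π x = 1 → x ^ 3 ^ j = 1 → x = 1 := by
  have : Fact (Nat.Prime 3) := ⟨Nat.prime_three⟩
  have hP : normalizer ((P : Subgroup π.ker) : Set π.ker) ≤ centralizer (P : Set π.ker) :=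
    fun g _ a ha => Subtype.ext (mem_center_iff.1 (hc ⟨a, ha, rfl⟩) g.1).symm
  let τ := MonoidHom.transferSylow P hP
  have hco : ∀ j, Nat.Coprime (3 ^ j) (Nat.card τ.ker) := fun j => Nat.Coprime.pow_left j
    ((Nat.Prime.coprime_iff_not_dvd Nat.prime_three).2 (MonoidHom.not_dvd_card_ker_transferSylow P hP))
  have hpw : ∀ n ∈ τ.ker, n.1 ^ Nat.card τ.ker = 1 := fun n hn =>
    congrArg (fun s : τ.ker => s.1.1) (pow_card_eq_one' (x := (⟨n, hn⟩ : τ.ker)))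
  let N := τ.ker.map π.ker.subtype
  have hN : N.Normal := ⟨by
    rintro _ ⟨n, hn, rfl⟩ g
    refine ⟨⟨g * n.1 * g⁻¹, (inferInstance : π.ker.Normal).conj_mem _ n.2 g⟩, ?_, rfl⟩
    obtain ⟨j, hj⟩ := P.2 (τ ⟨g * n.1 * g⁻¹, (inferInstance : π.ker.Normal).conj_mem _ n.2 g⟩)
    refine t_one (hco j) hj ?_
    rw [← map_pow, ← map_one τ]
    refine congrArg τ (Subtype.ext ?_)
    show (g * n.1 * g⁻¹) ^ _ = 1
    rw [conj_pow, hpw n hn]; simp⟩
  have hNK : N ≤ π.ker := map_subtype_le _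
  have h2 := S0892.result r (by omega) (by omega) (by omega) (π.ker.map (QuotientGroup.mk' N)) (by
      rintro _ ⟨k, hk, rfl⟩
      obtain ⟨⟨n, s⟩, e, -⟩ := (MonoidHom.ker_transferSylow_isComplement' P hP).existsUnique ⟨k, hk⟩
      have e' : n.1.1 * s.1.1 = k := congrArg Subtype.val e
      rw [← e', map_mul, show QuotientGroup.mk' N n.1.1 = 1 from
        (QuotientGroup.eq_one_iff _).2 ⟨_, n.2, rfl⟩, one_mul, mem_center_iff]
      intro g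
      obtain ⟨g, rfl⟩ := QuotientGroup.mk'_surjective N g
      rw [← map_mul, ← map_mul]
      exact congrArg _ (mem_center_iff.1 (hc ⟨_, s.2, rfl⟩) g))
    (by
      rw [_root_.commutator_def, ← map_top_of_surjective _ (QuotientGroup.mk'_surjective N),
        ← map_commutator, ← _root_.commutator_def, hp]
      exact map_mono le_top)
    ((QuotientGroup.quotientQuotientEquivQuotient N π.ker hNK).trans
      (QuotientGroup.quotientKerEquivOfSurjective π hπ))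
  intro x j hx hj
  have h3 : (QuotientGroup.mk' N x) ^ Nat.card (π.ker.map (QuotientGroup.mk' N)) = 1 :=
    congrArg Subtype.val (pow_card_eq_one' (x := (⟨_, x, hx, rfl⟩ : π.ker.map (QuotientGroup.mk' N))))
  have h4 : 0 < Nat.card (π.ker.map (QuotientGroup.mk' N)) := Nat.card_pos
  have h5 : QuotientGroup.mk' N x = 1 := by
    refine t_one (a := 3 ^ j) (Nat.Coprime.pow_left j ?_) (by rw [← map_pow, hj, map_one]) h3
    generalize Nat.card (π.ker.map (QuotientGroup.mk' N)) = m at *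
    interval_cases m <;> norm_num
  obtain ⟨n, hn, rfl⟩ := (QuotientGroup.eq_one_iff x).1 h5
  exact t_one (hco j) hj (hpw n hn)

theorem three (hc : ∀ {H : Type u} [Group H] [Finite H], Group.IsPerfect H →
      (∀ a b c : H, a ^ 3 = 1 → b ^ 3 = 1 → c ^ 3 = 1 → Commute a b → Commute a c → Commute b c →
        a ≠ 1 → b ∉ zpowers a → c ∈ closure ({a, b} : Set H)) →
      ∀ (R : Subgroup H) [R.Normal], IsPGroup 3 R → ∀ g : H, IsPGroup 7 (zpowers g) →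
      (∀ N : Subgroup H, N.Normal → g ∈ N → N = ⊤) → R ≤ center H)
    {H : Type u} [Group H] [Finite H] {r : ℕ} (hr : 8 ≤ r) (π : H →* alternatingGroup (Fin r))
    (hπ : Function.Surjective π)
    (hno : ∀ a b c : H, a ^ 3 = 1 → b ^ 3 = 1 → c ^ 3 = 1 → Commute a b → Commute a c → Commute b c →
      a ≠ 1 → b ∉ zpowers a → c ∈ closure ({a, b} : Set H)) :
    ∃ y₁ y₂ w : H, orderOf y₁ = 3 ∧ Commute y₁ y₂ ∧ y₂ ∉ zpowers y₁ ∧ w * y₁ * w⁻¹ = y₂ ∧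
      w * y₂ * w⁻¹ = y₁⁻¹ := by
  have : Fact (Nat.Prime 3) := ⟨Nat.prime_three⟩
  have : Fact (Nat.Prime 7) := ⟨by norm_num⟩
  obtain ⟨L, hL, hmin⟩ := exists_minimal_of_wellFoundedLT (fun L : Subgroup H => L.map π = ⊤)
    ⟨⊤, map_top_of_surjective π hπ⟩
  let ρ := π.comp L.subtype
  have hρ : Function.Surjective ρ := fun q => by
    obtain ⟨x, hx, e⟩ := hL.ge (mem_top q)
    exact ⟨⟨x, hx⟩, e⟩
  have hm : ∀ M : Subgroup L, M.map ρ = ⊤ → M = ⊤ := fun M h => by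
    rw [eq_top_iff]
    intro x _
    obtain ⟨y, hy, e⟩ := hmin (y := M.map L.subtype)
      (show (M.map L.subtype).map π = ⊤ by rw [map_map]; exact h) (map_subtype_le M) x.2
    exact (Subtype.ext e : y = x) ▸ hy
  have hs : IsSimpleGroup (alternatingGroup (Fin r)) := alternatingGroup.isSimpleGroup (by simp; omega)
  have hN : ∀ N : Subgroup L, N.Normal → N ≤ ρ.ker ∨ N = ⊤ := fun N hN => by
    rcases (hN.map ρ hρ).eq_bot_or_eq_top with h | h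
    · exact Or.inl ((Subgroup.map_eq_bot_iff _).mp h)
    · exact Or.inr (hm N h)
  obtain ⟨a, b, w, c, h1, h2, h3, h4, h5, h6, h7, h8⟩ := t_ex hr
  have hp : commutator L = ⊤ := (hN _ inferInstance).resolve_left fun h => by
    obtain ⟨x, rfl⟩ := hρ a
    obtain ⟨y, rfl⟩ := hρ w
    have e : ρ (y * x * y⁻¹ * x⁻¹) = 1 := h (commutator_mem_commutator (mem_top y) (mem_top x))
    rw [map_mul, map_mul, map_mul, map_inv, map_inv, mul_inv_eq_one, h6] at e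
    exact h8 (e ▸ mem_zpowers _)
  let P : Sylow 3 ρ.ker := default
  have hPn : ((P : Subgroup ρ.ker).map ρ.ker.subtype).Normal := by
    refine normalizer_eq_top_iff.1 (hm _ ?_)
    have := congrArg (Subgroup.map ρ) (Sylow.normalizer_sup_eq_top P)
    rwa [Subgroup.map_sup, (Subgroup.map_eq_bot_iff _).2 le_rfl, sup_bot_eq,
      map_top_of_surjective ρ hρ] at this
  obtain ⟨x, rfl⟩ := hρ c
  obtain ⟨k, m, hm7, hkm⟩ := Nat.exists_eq_pow_mul_and_not_dvd (orderOf_pos x).ne' 7 (by norm_num)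
  have hcen := hc ⟨hp⟩ (fun a b c e1 e2 e3 e4 e5 e6 e7 e8 => by
      have := hno a b c (congrArg Subtype.val e1) (congrArg Subtype.val e2) (congrArg Subtype.val e3)
        (e4.map L.subtype) (e5.map L.subtype) (e6.map L.subtype) (fun e => e7 (Subtype.ext e))
        (fun h => by
          obtain ⟨k, hk⟩ := mem_zpowers_iff.1 h
          exact e8 (mem_zpowers_iff.2 ⟨k, Subtype.ext hk⟩))
      rw [← mem_map_iff_mem L.subtype_injective, MonoidHom.map_closure, Set.image_pair]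
      exact this)
    ((P : Subgroup ρ.ker).map ρ.ker.subtype) (P.2.map _) (x ^ m) (by
      rintro ⟨_, hy⟩
      obtain ⟨i, rfl⟩ := mem_zpowers_iff.1 hy
      refine ⟨k, Subtype.ext ?_⟩
      show ((x ^ m) ^ i) ^ 7 ^ k = 1
      rw [← zpow_natCast, ← zpow_mul, mul_comm, zpow_mul, zpow_natCast, ← pow_mul, mul_comm, ← hkm,
        pow_orderOf_eq_one, one_zpow])
    (fun N hn hx => (hN N hn).resolve_left fun h => h4 (t_one
      ((Nat.Prime.coprime_iff_not_dvd (by norm_num)).2 hm7) h3 (by rw [← map_pow]; exact h hx)))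
  obtain ⟨y₁, y₂, v, k1, k2, k3, k4, k5⟩ := t_lift ρ hρ (t_ker hr ρ hρ hp P hcen) h1 h2 h5 h6 h7 h8
  refine ⟨y₁, y₂, v, by rw [Subgroup.orderOf_coe, k1], k2.map L.subtype, fun h => ?_,
    congrArg Subtype.val k4, congrArg Subtype.val k5⟩
  obtain ⟨i, hi⟩ := mem_zpowers_iff.1 h
  exact k3 (mem_zpowers_iff.2 ⟨i, Subtype.ext hi⟩)

end Cfsg.Agent.G2A
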